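import Mathlib
import Cfsg.Agent.Lib.TwMult.Ring
import Cfsg.Agent.Lib.Ree.Torus

/-!
The Schur multiplier of the small Ree groups.
-/

set_option autoImplicit false

namespace CfsgLib.TwMult

open CfsgLib.Schur CfsgLib.LieMult CfsgLib.Ree Subgroup
open scoped commutatorElement

universe w

variable {K : Type*} [Field K] [CharP K 3] {φ : K →+* K} {G : Type*} [Group G] (M : Model G K φ)
  (hφ : IsTits φ)

/-- the filtration of the Sylow `3`-subgroup -/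
def reeX (k : ℕ) : Subgroup G where
  carrier := {g | ∃ a b c, g = M.u a b c ∧ (1 ≤ k → a = 0) ∧ (2 ≤ k → b = 0) ∧ (3 ≤ k → c = 0)}
  one_mem' := ⟨0, 0, 0, M.u_zero.symm, by simp⟩
  mul_mem' := by
    rintro _ _ ⟨a, b, c, rfl, h1, h2, h3⟩ ⟨x, y, z, rfl, k1, k2, k3⟩
    exact ⟨_, _, _, M.u_mul hφ .., fun h => by simp [h1 h, k1 h],
      fun h => by simp [h1 (by omega), h2 h, k2 h],
      fun h => by simp [h1 (by omega), h2 (by omega), h3 h, k3 h]⟩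
  inv_mem' := by
    rintro _ ⟨a, b, c, rfl, h1, h2, h3⟩
    exact ⟨_, _, _, M.u_inv hφ .., fun h => by simp [h1 h], fun h => by simp [h1 (by omega), h2 h],
      fun h => by simp [h1 (by omega), h3 h]⟩

theorem u_mem_reeX {k : ℕ} {a b c : K} :
    M.u a b c ∈ reeX M hφ k ↔ (1 ≤ k → a = 0) ∧ (2 ≤ k → b = 0) ∧ (3 ≤ k → c = 0) := by
  refine ⟨fun ⟨x, y, z, e, h⟩ => ?_, fun h => ⟨a, b, c, rfl, h⟩⟩
  obtain ⟨rfl, rfl, rfl⟩ := M.u_inj e
  exact h

omit [CharP K 3] in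
theorem ρ_u (a b c : K) : M.ρ (M.u a b c) 0 1 = a ∧ M.ρ (M.u a b c) 0 2 = -b ∧
    M.ρ (M.u a b c) 0 3 = -c + a * b := by
  rw [M.ρu]; exact ⟨rfl, rfl, rfl⟩

/-- the coordinate on the first layer -/
def reeL0 : Lin (reeX M hφ 0) (reeX M hφ 1) K where
  c g := M.ρ g 0 1
  mul := by
    rintro _ ⟨a, b, c, rfl, -⟩ _ ⟨x, y, z, rfl, -⟩
    rw [M.u_mul hφ, (ρ_u M ..).1, (ρ_u M ..).1, (ρ_u M ..).1]
  zero_iff := by
    rintro _ ⟨a, b, c, rfl, -⟩
    simp [u_mem_reeX, (ρ_u M ..).1]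

/-- the coordinate on the second layer -/
def reeL1 : Lin (reeX M hφ 1) (reeX M hφ 2) K where
  c g := M.ρ g 0 2
  mul := by
    rintro _ ⟨a, b, c, rfl, h, -⟩ _ ⟨x, y, z, rfl, -⟩
    rw [M.u_mul hφ, (ρ_u M ..).2.1, (ρ_u M ..).2.1, (ρ_u M ..).2.1, h le_rfl]
    ring
  zero_iff := by
    rintro _ ⟨a, b, c, rfl, h, -⟩
    simp [u_mem_reeX, (ρ_u M ..).2.1, h]

/-- the coordinate on the third layer -/
def reeL2 : Lin (reeX M hφ 2) (reeX M hφ 3) K where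
  c g := M.ρ g 0 3
  mul := by
    rintro _ ⟨a, b, c, rfl, h, h', -⟩ _ ⟨x, y, z, rfl, k, -⟩
    rw [M.u_mul hφ, (ρ_u M ..).2.2, (ρ_u M ..).2.2, (ρ_u M ..).2.2, h (by omega), h' le_rfl, k (by omega)]
    ring
  zero_iff := by
    rintro _ ⟨a, b, c, rfl, h, h', -⟩
    simp [u_mem_reeX, (ρ_u M ..).2.2, h, h']

theorem reeL0_acts (l : Kˣ) : (reeL0 M hφ).Acts (M.h l) (l ^ 2 / φ l) := by
  rintro _ ⟨a, b, c, rfl, -⟩
  simp only [reeL0, M.h_conj hφ, (ρ_u M ..).1]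

theorem reeL1_acts (l : Kˣ) : (reeL1 M hφ).Acts (M.h l) (φ l / l) := by
  rintro _ ⟨a, b, c, rfl, -⟩
  simp only [reeL1, M.h_conj hφ, (ρ_u M ..).2.1, mul_neg]

theorem reeL2_acts (l : Kˣ) : (reeL2 M hφ).Acts (M.h l) l := by
  rintro _ ⟨a, b, c, rfl, h, -⟩
  simp [reeL2, M.h_conj hφ, (ρ_u M ..).2.2, h]

variable [Finite K]

include hφ in
theorem ree_compl (hq : 9 < Nat.card K) {E : Type w} [Group E] {π : E →* G} (hπ : IsCentralExt π) :
    ∃ C : Subgroup E, (∀ c ∈ C, π c = 1 → c = 1) ∧ C.map π = M.U hφ := by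
  have := M.finite
  have h3 := three_eq_zero K
  have hD : ∀ k, ∀ d ∈ M.H, ∀ x ∈ reeX M hφ k, d * x * d⁻¹ ∈ reeX M hφ k := by
    rintro k _ ⟨l, rfl⟩ _ ⟨a, b, c, rfl, h1, h2, h3⟩
    rw [M.hHom_apply, M.h_conj hφ, u_mem_reeX]
    exact ⟨fun h => by simp [h1 h], fun h => by simp [h2 h], fun h => by simp [h3 h]⟩
  obtain ⟨x, x0, x1, x2⟩ := exists_ne_zero_one_neg_one (K := K) (by omega)
  have hn := neg_one_ne_one' K
  have hφ0 : ∀ {l : K}, l ≠ 0 → φ l ≠ 0 := fun h => (map_ne_zero φ).2 h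
  have e0 : M.U hφ = reeX M hφ 0 := by
    ext g
    exact ⟨fun ⟨a, b, c, e⟩ => ⟨a, b, c, e, by simp⟩, fun ⟨a, b, c, e, _⟩ => ⟨a, b, c, e⟩⟩
  rw [e0]
  refine chain_tl hπ 3 M.H (reeX M hφ) (fun i j h => ?_) ?_ (fun d hd d' hd' => M.H_comm hd hd') hD
    (fun r s h hs => ?_) (fun r hr => ?_) fun r s h hs C => ?_
  · rintro _ ⟨a, b, c, rfl, h1, h2, h3⟩
    exact ⟨a, b, c, rfl, fun k => h1 (k.trans h), fun k => h2 (k.trans h), fun k => h3 (k.trans h)⟩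
  · rw [eq_bot_iff]
    rintro _ ⟨a, b, c, rfl, h1, h2, h3⟩
    rw [h1 (by omega), h2 (by omega), h3 le_rfl, M.u_zero]
    exact one_mem _
  · rintro _ ⟨a, b, c, rfl, -⟩ _ ⟨x, y, z, rfl, h1, h2, -⟩
    rw [commutatorElement_def, M.u_inv hφ, M.u_inv hφ, M.u_mul hφ, M.u_mul hφ, M.u_mul hφ, u_mem_reeX]
    refine ⟨fun _ => by ring, fun k => ?_, fun k => ?_⟩
    · simp only [h1 (by omega), map_neg, map_zero]
      ring
    · simp only [h1 (by omega), h2 (by omega), map_neg, map_zero]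
      linear_combination (a ^ 2 * φ a) * h3
  · interval_cases r
    · exact ⟨_, M.h_mem_H (Units.mk0 x x0), (reeL0 M hφ).fpf (hD _ _ (M.h_mem_H _)) (reeL0_acts M hφ _)
        fun e => x1 (hφ.eq_one_of_sq x0 e)⟩
    · exact ⟨_, M.h_mem_H (Units.mk0 x x0), (reeL1 M hφ).fpf (hD _ _ (M.h_mem_H _)) (reeL1_acts M hφ _)
        fun e => (hφ.sq_eq_one x0 e).elim x1 x2⟩
    · exact ⟨_, M.h_mem_H (Units.mk0 x x0), (reeL2 M hφ).fpf (hD _ _ (M.h_mem_H _)) (reeL2_acts M hφ _) x1⟩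
  · interval_cases s <;> interval_cases r
    · refine pairOK_of_subring (reeL0 M hφ) (reeL0 M hφ) (hD _) (hD _) fun R hR =>
        sep_of_inv (by omega) fun l hl => ?_
      have h0 : l ^ 2 * φ l ≠ 0 := mul_ne_zero (pow_ne_zero _ hl) (hφ0 hl)
      have := reeL0_acts M hφ (Units.mk0 _ h0)
      rw [Units.val_mk0, show (l ^ 2 * φ l) ^ 2 / φ (l ^ 2 * φ l) = l by
        rw [map_mul, map_pow, hφ]; have := hφ0 hl; field_simp] at this
      exact hR _ (M.h_mem_H _) _ _ hl this this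
    · refine pairOK_of_subring (reeL0 M hφ) (reeL1 M hφ) (hD _) (hD _) fun R hR =>
        sep_of_one (hR _ (M.h_mem_H (-1)) _ _ (by simp) (reeL0_acts M hφ _) (reeL1_acts M hφ _))
          (Or.inr ⟨by simpa [div_neg] using hn, by simp⟩)
    · refine pairOK_of_subring (reeL1 M hφ) (reeL1 M hφ) (hD _) (hD _) fun R hR =>
        sep_of_sq_inv (Or.inl hq) fun l hl => ?_
      have h0 : l * φ l ≠ 0 := mul_ne_zero hl (hφ0 hl)
      have := reeL1_acts M hφ (Units.mk0 _ h0)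
      rw [Units.val_mk0, show φ (l * φ l) / (l * φ l) = l ^ 2 by
        rw [map_mul, hφ]; have := hφ0 hl; field_simp] at this
      exact hR _ (M.h_mem_H _) _ _ (pow_ne_zero _ hl) this this
    · refine pairOK_of_subring (reeL0 M hφ) (reeL2 M hφ) (hD _) (hD _) fun R hR => ?_
      have key : ∀ l : K, l ≠ 0 → (φ l / l ^ 2, l) ∈ R := fun l hl => by
        have := hR _ (M.h_mem_H (Units.mk0 l hl)⁻¹) _ _ (Units.ne_zero _) (reeL0_acts M hφ _)
          (reeL2_acts M hφ _)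
        convert this using 2 <;> simp [div_eq_mul_inv, mul_comm]
      have x3 : x + 1 ≠ 0 := fun e => x2 (eq_neg_of_add_eq_zero_left e)
      refine ⟨_, sub_mem (sub_mem (key _ x3) (key _ x0)) (one_mem _), Or.inr ⟨fun e => ?_, by simp⟩⟩
      simp only [Prod.fst_sub, Prod.fst_one, map_add, map_one] at e
      field_simp at e
      have e1 : φ x = x ^ 3 := by
        apply mul_left_cancel₀ (sub_ne_zero.2 x1)
        linear_combination e + (x * φ x + x ^ 3) * h3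
      have e2 := hφ x
      rw [e1, map_pow, e1] at e2
      have e3 : x ^ 3 * ((x - 1) * (x + 1)) ^ 3 = 0 := by
        linear_combination e2 + (x ^ 5 - x ^ 7) * h3
      exact mul_ne_zero (pow_ne_zero _ x0) (pow_ne_zero _ (mul_ne_zero (sub_ne_zero.2 x1) x3)) e3
    · refine pairOK_of_subring (reeL1 M hφ) (reeL2 M hφ) (hD _) (hD _) fun R hR =>
        sep_of_one (hR _ (M.h_mem_H (-1)) _ _ (by simp) (reeL1_acts M hφ _) (reeL2_acts M hφ _))
          (Or.inl ⟨by simp, by simpa using hn⟩)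
    · exact pairOK_of_subring (reeL2 M hφ) (reeL2 M hφ) (hD _) (hD _) fun R hR =>
        sep_of_inv (by omega) fun l hl => hR _ (M.h_mem_H (Units.mk0 l hl)) _ _ hl
          (reeL2_acts M hφ _) (reeL2_acts M hφ _)

include hφ in
theorem ree_cm_S {E : Type w} [Group E] {π : E →* G} (hπ : IsCentralExt π) :
    ∀ a ∈ M.S hφ, ∀ b ∈ M.S hφ, cm π a b = 1 := by
  have := M.finite
  have : Fact (Nat.Prime 2) := ⟨Nat.prime_two⟩
  have hz := M.V_le_S hφ M.z_mem_V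
  have hn := M.V_le_S hφ M.n_mem_V
  have he := M.e_mem_S hφ
  have c1 := cm_conj_of_commute hπ (M.S_comm hφ hz hn) (M.u 0 1 0)
  have c2 := cm_conj_of_commute hπ (M.S_comm hφ hz he) (M.u 0 1 0)
  rw [M.x1_conj_z hφ, M.x1_conj_n hφ] at c1
  rw [M.x1_conj_z hφ, M.x1_conj_e hφ, cm_mul_right_of_commute hπ (M.S_comm hφ hz hn), mul_eq_left] at c2
  rw [c2] at c1
  have hV : ∀ b ∈ M.V, b ∈ lcSub hπ M.z := by
    have k1 : M.z ∈ lcSub hπ M.z := cm_self _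
    have k2 : M.n ∈ lcSub hπ M.z := by rw [mem_lcSub, cm_swap, c2, inv_one]
    rintro _ (rfl | rfl | rfl | rfl)
    exacts [one_mem _, k1, k2, mul_mem k1 k2]
  have hS : ∀ b ∈ M.S hφ, b ∈ lcSub hπ M.z := by
    rintro b (hb | hb)
    · exact hV b hb
    · have k : M.e hφ ∈ lcSub hπ M.z := by rw [mem_lcSub, cm_swap, c1, inv_one]
      simpa using mul_mem (inv_mem k) (hV _ hb)
  intro a ha b hb
  by_cases h1 : b = 1
  · rw [h1, cm_one_right hπ]
  obtain ⟨c, rfl⟩ := isConj_iff.1 (M.isConj_z hφ hφ.sq h1 (M.S_sq hφ hb))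
  have : IsMulCommutative (M.sylowS hφ) := ⟨⟨fun a b => Subtype.ext (M.S_comm hφ a.2 b.2)⟩⟩
  obtain ⟨g, hg, e⟩ := (M.sylowS hφ).conj_eq_normalizer_conj_of_mem M.z c⁻¹ hz (by rw [inv_inv]; exact hb)
  rw [inv_inv] at e
  have h2 : g * a * g⁻¹ ∈ M.S hφ := (mem_normalizer_iff.1 hg a).1 ha
  have := cm_conj' hπ g⁻¹ (g * a * g⁻¹) M.z
  rw [(mem_lcSub hπ).1 (hS _ h2)] at this
  simpa [e, mul_assoc] using this

include M hφ in
theorem ree_mult (hq : 9 < Nat.card K) : Cfsg.HasCyclicSchurMultiplier G 1 := by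
  have := M.finite
  refine trivial_mult_of_forall_prime fun Γ _ _ σ hσ p hp _ => ?_
  have hσ' := centralExt_of_stem hσ
  have := Fact.mk hp
  by_cases h3 : 3 < p
  · obtain ⟨P⟩ : Nonempty (Sylow p G) := inferInstance
    have := M.isCyclic_of_isPGroup hφ h3 P.isPGroup'
    exact hσ'.not_dvd_card_stemKer_of_isCyclic P
  rw [stemKer_eq_ker_of_stem hσ]
  have h2 := hp.two_le
  have : p = 2 ∨ p = 3 := by omega
  rcases this with rfl | rfl
  · refine not_dvd_card_ker hσ hp (U := M.S hφ) (M.sylowS hφ).not_dvd_index fun k hk _ => ?_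
    exact (commutator_comap_le_iff hσ' (C := ⊥)).2 (ree_cm_S M hφ hσ') hk
  · obtain ⟨C, hC⟩ := ree_compl M hφ hq hσ'
    exact not_dvd_card_ker hσ hp (U := M.U hφ) (M.sylowU hφ).not_dvd_index (eq_one_of_compl hσ' hC)

end CfsgLib.TwMult
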